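import Mathlib
import Cfsg.Agent.H631.VZ.FFour
import Cfsg.Agent.H631.VZ.TorC

/-!
# S4842, type `F₄`: `V^B ≠ 0` (helper631)
-/

set_option autoImplicit false
set_option linter.unusedSectionVars false

open Cfsg

namespace Cfsg.Agent.H631.VZ

open CoxeterSystem Cfsg.Agent.ChevalleyStructure.CoxeterGeom Cfsg.Agent.Tits.Roots Cfsg.Agent.Tits.Core
  Cfsg.Agent.Tits.Exchange Cfsg.Agent.Nodes.Reps Cfsg.Agent.Nodes.BNOf Cfsg.Agent.Nodes.StabComb
  Cfsg.Agent.Nodes.Bruhat Cfsg.Agent.Nodes.OppDec Cfsg.Agent.Nodes.LeviDec Module Cfsg.Agent.H985.VZ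
open Cfsg.Lie Cfsg.Lie.ChevalleyDatum
open Cfsg.Agent.ChevalleyStructure Cfsg.Agent.ChevalleyStructure.Elts
  Cfsg.Agent.ChevalleyStructure.CoxeterGeomTypes Cfsg.Agent.ChevalleyStructure.NPerm
open Cfsg.Agent.Nodes Cfsg.Agent.Nodes.RGDChev
open Cfsg.Agent.KFacts.RgdField Cfsg.Agent.KFacts.RgdChevCoord Cfsg.Agent.BpExc.TorCent Cfsg.Agent.BpExc.TorChev

universe u v

section

variable {I W : Type*} {Y : Type u} [Fintype I] [DecidableEq I] [Group W] [Group Y] [Finite Y] [Finite W]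
  {M : CoxeterMatrix I} {cs : CoxeterSystem M W} {A : I → I → ℤ} {h : IsCartan M A} {p : ℕ} [Fact p.Prime]
  {T : Subgroup Y} {n : I → Y} {X : (I → ℤ) → Subgroup Y} {V : Type v} [AddCommGroup V] [Module ℂ V]
  {ρ : Representation ℂ Y V}

theorem Vl_one (R : RGD cs h p T n X) : Vl cs h T X ρ 1 = fx ρ (RGD.B cs h T X) := by
  rw [Vl_eq R, ← eig_one]
  congr 1

end

variable {V : Type v} [AddCommGroup V] [Module ℂ V] {K : Type u} [Field K]

theorem VB_F4_of [Finite K] [FiniteDimensional ℂ V] (p : ℕ) [Fact p.Prime] [CharP K p]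
    (hp : IsType chevF4 4 CoxeterMatrix.F₄) {W : Type*} [Group W] [Finite W] (cs : CoxeterSystem CoxeterMatrix.F₄ W)
    (H1 : ∀ (b : Fin 4 → (Kˣ →* ℂˣ)) (x : W), El cs hp.isCartan {0, 1, 3} b →
      El cs hp.isCartan {0, 2, 3} (dact cs hp.isCartan x b) → b 0 = 1 ∧ b 1 = 1 ∧ b 3 = 1 ∧ b 2 ^ 3 = 1)
    (H2 : ∀ (b : Fin 4 → (Kˣ →* ℂˣ)) (x y : W), El cs hp.isCartan {0, 1, 3} b →
      El cs hp.isCartan {0, 2, 3} (dact cs hp.isCartan x b) → El cs hp.isCartan {0, 1, 2} (dact cs hp.isCartan y b) →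
      b 2 = 1)
    (R : RGD cs hp.isCartan p (TT chevF4 K) (nc hp K) (XX chevF4 4 K)) {ρ : Representation ℂ ↥(chevF4.group K) V}
    (hρ : ρ.IsIrreducible) {t t' : ↥(chevF4.group K)} (ht : Ell cs hp.isCartan (TT chevF4 K) (XX chevF4 4 K) {0, 1, 3} t)
    (hχ : ρ.character t ≠ 0) (ht' : Ell cs hp.isCartan (TT chevF4 K) (XX chevF4 4 K) {0, 2, 3} t')
    (hχ' : ρ.character t' ≠ 0) (h3 : 3 ∣ Nat.card K - 1 → ∃ t'', Ell cs hp.isCartan (TT chevF4 K) (XX chevF4 4 K) {0, 1, 2} t'' ∧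
      ρ.character t'' ≠ 0) : fx ρ (RGD.B cs hp.isCartan (TT chevF4 K) (XX chevF4 4 K)) ≠ ⊥ := by
  have : Finite ↥(chevF4.group K) := inferInstance
  have hG : GG cs hp.isCartan (TT chevF4 K) (XX chevF4 4 K) = ⊤ := GG_top hp cs
  have hT : ∀ s ∈ TT chevF4 K, ∀ t ∈ TT chevF4 K, s * t = t * s := TT_comm hp
  have h0 : VU cs hp.isCartan (XX chevF4 4 K) ρ ≠ ⊥ := VU_F4 R hG hρ ht hχ ht' hχ'
  have D := dic hp cs p R.nsys
  obtain ⟨l, hl, hE⟩ := D.exists_El R hG hT hρ h0 ht hχ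
  obtain ⟨l', hl', hE'⟩ := D.exists_El R hG hT hρ h0 ht' hχ'
  obtain ⟨w, hw⟩ := exists_mv R hG hρ hl hl'
  rw [D.mv hw] at hE'
  obtain ⟨b0, b1, b3, b2⟩ := H1 _ _ hE hE'
  have hb2 : bl hp l 2 = 1 := by
    by_cases hq : 3 ∣ Nat.card K - 1
    · obtain ⟨t'', ht'', hχ''⟩ := h3 hq
      obtain ⟨l'', hl'', hE''⟩ := D.exists_El R hG hT hρ h0 ht'' hχ''
      obtain ⟨y, hy⟩ := exists_mv R hG hρ hl hl''
      rw [D.mv hy] at hE''
      exact H2 _ _ _ hE hE' hE''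
    · ext a
      have h1 : (bl hp l 2 a) ^ 3 = 1 := DFunLike.congr_fun b2 a
      have h2 : (bl hp l 2 a) ^ (Nat.card K - 1) = 1 := by
        have e : Nat.card Kˣ = Nat.card K - 1 := Nat.card_units K
        rw [← map_pow, ← e, pow_card_eq_one', map_one]
      have h4 : Nat.Coprime 3 (Nat.card K - 1) := (Nat.Prime.coprime_iff_not_dvd Nat.prime_three).2 hq
      have h5 : (bl hp l 2 a) ^ Nat.gcd 3 (Nat.card K - 1) = 1 := pow_gcd_eq_one.2 ⟨h1, h2⟩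
      rw [h4.gcd_eq_one, pow_one] at h5
      rw [h5]
      rfl
  have hl1 : l = 1 := D.one l (by
    funext i
    fin_cases i
    · exact b0
    · exact b1
    · exact hb2
    · exact b3)
  rw [hl1, Vl_one R] at hl
  exact hl

end Cfsg.Agent.H631.VZ
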